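import Mathlib
import Cfsg.Agent.Lib.Helper74.O720.Defs
import Cfsg.Agent.Lib.Helper20.O720.P9
import Cfsg.Agent.Lib.Helper22.O720.T0
import Cfsg.Agent.Lib.Helper63.O720.T0d
import Cfsg.Agent.Lib.Helper2.O720.K0

set_option autoImplicit false

namespace Cfsg.Agent.Lib.Helper74.O720

variable {G : Type*} [Group G] [Finite G] [IsSimpleGroup G]

/-- [H10] -/
theorem H10 (h : Nat.card G = 720) (P : Sylow 3 G) (hM : Nat.card (Nz (P : Subgroup G)) = 72) (X : Subgroup G)
    (hX : Nat.card X = 3) (hXn : Nz (P : Subgroup G) ≤ Nz X) (g : G) (hg : g ∉ Nz (P : Subgroup G))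
    (hXg : X ≤ cj g (P : Subgroup G)) : False := by
  haveI : Fact (Nat.Prime 3) := ⟨by norm_num⟩
  have hXb : X ≠ ⊥ := by
    intro h1
    rw [h1, Subgroup.card_bot] at hX
    omega
  have hXt : X ≠ ⊤ := by
    intro h1
    rw [h1, Subgroup.card_top, h] at hX
    omega
  have hNX : Nz X = Nz (P : Subgroup G) := by
    rcases max72 h (Nz (P : Subgroup G)) (Nz X) hM hXn with h1 | h1
    · exact h1
    · exact absurd h1 (Nz_ne_top X hXb hXt)
  have hle : ((g • P : Sylow 3 G) : Subgroup G) ≤ Nz (P : Subgroup G) := by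
    rw [← hNX]
    intro y hy
    apply Subgroup.centralizer_le_normalizer
    rw [Subgroup.mem_centralizer_iff]
    intro x hx
    exact comm_P h (g • P) x (hXg hx) y hy
  have h1 := eq_of_le_Nz P (g • P) hle
  apply hg
  apply mem_Nz_of_cj_eq
  rw [← coe_smul_sylow, h1]

end Cfsg.Agent.Lib.Helper74.O720
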