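import Mathlib
import Cfsg.Agent.Lib.Helper74.O720.Defs
import Cfsg.Agent.Lib.Helper59.CY.G1
import Cfsg.Agent.Lib.Helper20.O720.P9

set_option autoImplicit false

namespace Cfsg.Agent.Lib.Helper74.O720

variable {G : Type*} [Group G] [Finite G] [IsSimpleGroup G]

/-- [X10] -/
theorem X10 (h : Nat.card G = 720) (P : Sylow 3 G) (g : G) (hg : g ∉ Nz (P : Subgroup G))
    (h3 : 3 ∣ Nat.card (Ig (Nz (P : Subgroup G)) g)) :
    Nat.card ((P : Subgroup G) ⊓ cj g (P : Subgroup G) : Subgroup G) = 3 := by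
  haveI : Fact (Nat.Prime 3) := ⟨by norm_num⟩
  obtain ⟨x, hx⟩ := exists_prime_orderOf_dvd_card' (G := ↥(Ig (Nz (P : Subgroup G)) g)) 3 h3
  have hx3 : orderOf (x : G) = 3 := by rw [Subgroup.orderOf_coe]; exact hx
  have hPE : Cfsg.Agent.Lib.Helper59.CY.PE 3 (x : G) := ⟨1, by rw [hx3, pow_one]⟩
  have hx1 : (x : G) ∈ (P : Subgroup G) := Cfsg.Agent.Lib.Helper59.CY.pin P x.2.1 hPE
  have hx2 : (x : G) ∈ cj g (P : Subgroup G) := by
    have h4 : (x : G) ∈ Nz (cj g (P : Subgroup G)) := by rw [Nz_cj]; exact x.2.2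
    exact Cfsg.Agent.Lib.Helper59.CY.pin (g • P) h4 hPE
  have hne : (x : G) ≠ 1 := by
    intro h1
    rw [h1, orderOf_one] at hx3
    omega
  have hP9 := card_P h P
  have hdvd : Nat.card ((P : Subgroup G) ⊓ cj g (P : Subgroup G) : Subgroup G) ∣ 3 ^ 2 := by
    have := Subgroup.card_dvd_of_le (inf_le_left : (P : Subgroup G) ⊓ cj g (P : Subgroup G) ≤ P)
    rw [hP9] at this
    exact this
  obtain ⟨k, hk, hk'⟩ := (Nat.dvd_prime_pow (by norm_num : Nat.Prime 3)).1 hdvd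
  interval_cases k
  · exfalso
    apply hne
    have h5 : ((P : Subgroup G) ⊓ cj g (P : Subgroup G) : Subgroup G) = ⊥ :=
      Subgroup.card_eq_one.1 (by simpa using hk')
    have h6 : (x : G) ∈ ((P : Subgroup G) ⊓ cj g (P : Subgroup G) : Subgroup G) := ⟨hx1, hx2⟩
    rw [h5] at h6
    exact Subgroup.mem_bot.1 h6
  · simpa using hk'
  · exfalso
    apply hg
    apply mem_Nz_of_cj_eq
    have h5 : ((P : Subgroup G) ⊓ cj g (P : Subgroup G) : Subgroup G) = cj g (P : Subgroup G) :=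
      Subgroup.eq_of_le_of_card_ge inf_le_right (by rw [card_cj, hP9, hk']; norm_num)
    have h6 : ((P : Subgroup G) ⊓ cj g (P : Subgroup G) : Subgroup G) = (P : Subgroup G) :=
      Subgroup.eq_of_le_of_card_ge inf_le_left (by rw [hP9, hk']; norm_num)
    rw [← h5, h6]

end Cfsg.Agent.Lib.Helper74.O720
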