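import Mathlib
import Cfsg.Agent.Lib.Helper74.O720.Defs
import Cfsg.Agent.Lib.Helper20.O720.P9
import Cfsg.Agent.Lib.Helper63.O720.XN
import Cfsg.Agent.Lib.Helper25.O720.F1
import Cfsg.Agent.Lib.Helper86.O720.X10
import Cfsg.Agent.Lib.Helper86.O720.H10

set_option autoImplicit false

namespace Cfsg.Agent.Lib.Helper74.O720

variable {G : Type*} [Group G] [Finite G] [IsSimpleGroup G]

/-- [I2a] -/
theorem I2a (h : Nat.card G = 720) (P : Sylow 3 G) (hM : Nat.card (Nz (P : Subgroup G)) = 72) (V : Subgroup G)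
    (hV : IsPGroup 2 V) (hVC : V ≤ Cz (P : Subgroup G)) (hVN : Nz (P : Subgroup G) ≤ Nz V) (g : G)
    (hg : g ∉ Nz (P : Subgroup G)) (h12 : Nat.card (Ig (Nz (P : Subgroup G)) g) = 12) :
    V ≤ cj g (Nz (P : Subgroup G)) := by
  have hX := X10 h P g hg (by rw [h12]; norm_num)
  set X : Subgroup G := (P : Subgroup G) ⊓ cj g (P : Subgroup G) with hXdef
  have hCX : Cz (P : Subgroup G) ≤ Nz X := by
    intro y hy
    apply Subgroup.centralizer_le_normalizer
    rw [Subgroup.mem_centralizer_iff]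
    intro x hx
    exact Subgroup.mem_centralizer_iff.1 hy x hx.1
  have hPC : (P : Subgroup G) ≤ Cz (P : Subgroup G) := by
    intro y hy
    rw [Subgroup.mem_centralizer_iff]
    intro x hx
    exact comm_P h P x hx y hy
  have hPL : (P : Subgroup G) ≤ Nz (P : Subgroup G) ⊓ Nz X :=
    le_inf Subgroup.le_normalizer (hPC.trans hCX)
  have hIL : Ig (Nz (P : Subgroup G)) g ≤ Nz (P : Subgroup G) ⊓ Nz X :=
    le_inf inf_le_left (XN (P : Subgroup G) g)
  have hVL : V ≤ Nz (P : Subgroup G) ⊓ Nz X :=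
    le_inf (hVC.trans (Subgroup.centralizer_le_normalizer _)) (hVC.trans hCX)
  have h9 : 9 ∣ Nat.card (Nz (P : Subgroup G) ⊓ Nz X : Subgroup G) := by
    rw [← card_P h P]; exact Subgroup.card_dvd_of_le hPL
  have h12' : 12 ∣ Nat.card (Nz (P : Subgroup G) ⊓ Nz X : Subgroup G) := by
    rw [← h12]; exact Subgroup.card_dvd_of_le hIL
  have h72 : Nat.card (Nz (P : Subgroup G) ⊓ Nz X : Subgroup G) ∣ 72 := by
    rw [← hM]; exact Subgroup.card_dvd_of_le inf_le_left
  have h36 : Nat.card (Nz (P : Subgroup G) ⊓ Nz X : Subgroup G) = 36 := by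
    have h36d : 36 ∣ Nat.card (Nz (P : Subgroup G) ⊓ Nz X : Subgroup G) := by
      have := Nat.lcm_dvd h9 h12'
      exact this
    obtain ⟨k, hk⟩ := h36d
    have hle := Nat.le_of_dvd (by norm_num) h72
    have hpos : 0 < Nat.card (Nz (P : Subgroup G) ⊓ Nz X : Subgroup G) := Nat.card_pos
    have hk12 : k = 1 ∨ k = 2 := by omega
    rcases hk12 with rfl | rfl
    · omega
    · exfalso
      have h1 : (Nz (P : Subgroup G) ⊓ Nz X : Subgroup G) = Nz (P : Subgroup G) :=
        Subgroup.eq_of_le_of_card_ge inf_le_left (by rw [hM, hk])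
      have h2 : Nz (P : Subgroup G) ≤ Nz X := by rw [← h1]; exact inf_le_right
      exact H10 h P hM X hX h2 g hg inf_le_right
  have hF := F1 (Nz (P : Subgroup G) ⊓ Nz X) V (Ig (Nz (P : Subgroup G)) g) hV hVL
    (inf_le_left.trans hVN) hIL 2 (by rw [h12]; norm_num) (by rw [h36]; norm_num)
  exact hF.trans inf_le_right

end Cfsg.Agent.Lib.Helper74.O720
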