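import Mathlib
import Cfsg.Agent.Lib.Helper74.O720.Defs
import Cfsg.Agent.Lib.Helper20.O720.P9
import Cfsg.Agent.Lib.Helper63.O720.XN
import Cfsg.Agent.Lib.Helper40.O720.ST
import Cfsg.Agent.Lib.Helper86.O720.X10

set_option autoImplicit false

namespace Cfsg.Agent.Lib.Helper74.O720

variable {G : Type*} [Group G] [Finite G] [IsSimpleGroup G]

/-- [J1] -/
theorem J1 (h : Nat.card G = 720) (P : Sylow 3 G) (hC : Cz (P : Subgroup G) = (P : Subgroup G)) (g : G)
    (hg : g ∉ Nz (P : Subgroup G)) : Nat.card (Ig (Nz (P : Subgroup G)) g) ≠ 24 := by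
  intro h24
  haveI : Fact (Nat.Prime 2) := ⟨Nat.prime_two⟩
  have hX := X10 h P g hg (by rw [h24]; norm_num)
  obtain ⟨K, hK⟩ := Sylow.exists_subgroup_card_pow_prime (G := ↥(Ig (Nz (P : Subgroup G)) g)) 2 (n := 3)
    (by rw [h24]; norm_num)
  have hS8 : Nat.card (K.map (Ig (Nz (P : Subgroup G)) g).subtype) = 2 ^ 3 := by
    rw [Subgroup.card_map_of_injective (Subgroup.subtype_injective _), hK]
  have hSI : K.map (Ig (Nz (P : Subgroup G)) g).subtype ≤ Ig (Nz (P : Subgroup G)) g :=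
    Subgroup.map_subtype_le K
  have hbot : K.map (Ig (Nz (P : Subgroup G)) g).subtype ⊓ Cz (P : Subgroup G) = ⊥ := by
    rw [hC]
    apply Subgroup.inf_eq_bot_of_coprime
    rw [hS8, card_P h P]
    norm_num
  have h4 := ST (P : Subgroup G) ((P : Subgroup G) ⊓ cj g (P : Subgroup G))
    (K.map (Ig (Nz (P : Subgroup G)) g).subtype) (card_P h P) (comm_P h P) inf_le_left hX
    (IsPGroup.of_card hS8) (hSI.trans inf_le_left) (hSI.trans (XN (P : Subgroup G) g)) hbot
  rw [hS8] at h4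
  omega

end Cfsg.Agent.Lib.Helper74.O720
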